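import Mathlib

/-!
# Decomposable words and their number

A word is `k`-decomposable when it contains `k` consecutive blocks, the first letter of every block
being larger than all later letters of the blocks.  The number of `k`-indecomposable permutations of
`N` letters is `o(N! / r ^ N)` for every `r`.
-/

set_option autoImplicit false

namespace Cfsg.Agent.Zel.BZ

open Finset

section Words

variable {α : Type*} [LinearOrder α]

/-- a chain of blocks: the first letter of a block is larger than everything after it -/
inductive Good : List (List α) → Prop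
  | nil : Good []
  | cons (a : α) (t : List α) (bs : List (List α)) : (∀ c ∈ t, c < a) →
      (∀ c ∈ bs.flatten, c < a) → Good bs → Good ((a :: t) :: bs)

theorem Good.right {p q : List (List α)} (h : Good (p ++ q)) : Good q := by
  induction p with
  | nil => exact h
  | cons b p ih =>
    rw [List.cons_append] at h
    cases h with
    | cons a t bs h1 h2 h3 => exact ih h3

theorem Good.merge (gs : List (List (List α))) (s : List (List α)) (hne : ∀ g ∈ gs, g ≠ [])
    (h : Good (gs.flatten ++ s)) : Good (gs.map List.flatten) := by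
  induction gs with
  | nil => exact Good.nil
  | cons g gs ih =>
    have hg := hne g (List.mem_cons_self ..)
    obtain ⟨b, g', rfl⟩ := List.exists_cons_of_ne_nil hg
    have h' : Good (gs.flatten ++ s) := by
      rw [List.flatten_cons, List.append_assoc] at h
      exact h.right
    rw [List.flatten_cons, List.append_assoc, List.cons_append] at h
    cases h with
    | cons a t bs h1 h2 h3 =>
      rw [List.map_cons, List.flatten_cons, List.cons_append]
      refine Good.cons a _ _ ?_ ?_ (ih (fun g hg => hne g (List.mem_cons_of_mem _ hg)) h')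
      · intro c hc
        rcases List.mem_append.1 hc with hc | hc
        · exact h1 c hc
        · apply h2
          rw [List.flatten_append]
          exact List.mem_append_left _ hc
      · intro c hc
        apply h2
        rw [List.flatten_append, List.flatten_append]
        apply List.mem_append_right
        apply List.mem_append_left
        rw [List.flatten_flatten]
        exact hc

/-- `k`-decomposable words -/
def Dec (k : ℕ) (w : List α) : Prop :=
  ∃ (p : List α) (bs : List (List α)) (s : List α),
    Good bs ∧ bs.length = k ∧ w = p ++ bs.flatten ++ s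

theorem dec_zero (w : List α) : Dec 0 w := ⟨[], [], w, Good.nil, rfl, by simp⟩

theorem Dec.left {k : ℕ} {u : List α} (h : Dec k u) (v : List α) : Dec k (u ++ v) := by
  obtain ⟨p, bs, s, h1, h2, rfl⟩ := h
  exact ⟨p, bs, s ++ v, h1, h2, by simp⟩

theorem Dec.right {k : ℕ} {v : List α} (h : Dec k v) (u : List α) (m : α) (hm : ∀ c ∈ v, c < m) :
    Dec (k + 1) (u ++ m :: v) := by
  obtain ⟨p, bs, s, h1, h2, rfl⟩ := h
  refine ⟨u, (m :: p) :: bs, s, Good.cons m p bs ?_ ?_ h1, by simp [h2], by simp⟩
  · intro c hc
    exact hm c (by simp [hc])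
  · intro c hc
    exact hm c (List.mem_append_left _ (List.mem_append_right _ hc))

open Classical in
/-- the `k`-indecomposable arrangements of the letters of `S` -/
noncomputable def ind (k : ℕ) (S : Finset α) : Finset (List α) :=
  (S.val.lists.toFinset).filter fun w => ¬ Dec k w

theorem mem_ind {k : ℕ} {S : Finset α} {w : List α} :
    w ∈ ind k S ↔ (w : Multiset α) = S.val ∧ ¬ Dec k w := by
  classical
  unfold ind
  rw [Finset.mem_filter, Multiset.mem_toFinset, Multiset.mem_lists_iff]
  exact and_congr_left' eq_comm

/-- the bound on the number of indecomposable words -/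
def cf : ℕ → ℕ → ℕ
  | 0, _ => 0
  | _ + 1, 0 => 1
  | k + 1, N + 1 => ∑ j : Fin (N + 1), N.choose j * (cf (k + 1) j * cf k (N - j))
termination_by k N => (k, N)
decreasing_by
  · exact Prod.Lex.right _ j.2
  · exact Prod.Lex.left _ _ (Nat.lt_succ_self k)

theorem cf_realised : True := by have := @cf.eq_def; trivial

theorem cf_zero (N : ℕ) : cf 0 N = 0 := by rw [cf]

theorem cf_succ_zero (k : ℕ) : cf (k + 1) 0 = 1 := by rw [cf]

theorem cf_succ_succ (k N : ℕ) :
    cf (k + 1) (N + 1) = ∑ j ∈ range (N + 1), N.choose j * (cf (k + 1) j * cf k (N - j)) := by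
  rw [cf]
  exact Fin.sum_univ_eq_sum_range (fun j => N.choose j * (cf (k + 1) j * cf k (N - j))) (N + 1)

theorem card_ind_le (k : ℕ) : ∀ (N : ℕ) (S : Finset α), S.card = N → (ind k S).card ≤ cf k N := by
  classical
  induction k with
  | zero =>
    intro N S _
    have : ind 0 S = ∅ := by
      rw [Finset.eq_empty_iff_forall_notMem]
      intro w hw
      exact (mem_ind.1 hw).2 (dec_zero w)
    simp [this]
  | succ k ihk =>
    intro N
    induction N using Nat.strong_induction_on with
    | _ N ihN =>
    intro S hS
    rcases N with _ | N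
    · rw [cf_succ_zero, Finset.card_le_one]
      intro a ha b hb
      have hS' : S = ∅ := Finset.card_eq_zero.1 hS
      subst hS'
      have h1 := (mem_ind.1 ha).1
      have h2 := (mem_ind.1 hb).1
      simp only [Finset.empty_val, Multiset.coe_eq_zero] at h1 h2
      rw [h1, h2]
    · have hne : S.Nonempty := Finset.card_pos.1 (by omega)
      set m := S.max' hne with hm
      have hmS : m ∈ S := S.max'_mem hne
      have hcard : (S.erase m).card = N := by rw [Finset.card_erase_of_mem hmS, hS]; rfl
      have hsub : ind (k + 1) S ⊆ (S.erase m).powerset.biUnion fun T =>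
          ((ind (k + 1) T) ×ˢ (ind k (S.erase m \ T))).image fun z => z.1 ++ m :: z.2 := by
        intro w hw
        obtain ⟨hw1, hw2⟩ := mem_ind.1 hw
        have hnd : w.Nodup := by
          have := S.nodup
          rw [← hw1] at this
          exact this
        have hmem : ∀ c, c ∈ w ↔ c ∈ S := by
          intro c
          rw [← Finset.mem_val, ← hw1]
          rfl
        obtain ⟨u, v, rfl⟩ := List.append_of_mem ((hmem m).2 hmS)
        have hnd' := List.nodup_append.1 hnd
        have hv := List.nodup_cons.1 hnd'.2.1
        have hmu : m ∉ u := fun h => hnd'.2.2 m h m (List.mem_cons_self ..) rfl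
        rw [Finset.mem_biUnion]
        refine ⟨u.toFinset, ?_, ?_⟩
        · rw [Finset.mem_powerset]
          intro c hc
          rw [List.mem_toFinset] at hc
          rw [Finset.mem_erase]
          exact ⟨fun h => hmu (h ▸ hc), (hmem c).1 (List.mem_append_left _ hc)⟩
        · rw [Finset.mem_image]
          refine ⟨(u, v), ?_, rfl⟩
          rw [Finset.mem_product]
          constructor
          · rw [mem_ind]
            refine ⟨?_, fun h => hw2 (h.left _)⟩
            rw [List.toFinset_val, List.dedup_eq_self.2 hnd'.1]
          · rw [mem_ind]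
            refine ⟨?_, fun h => hw2 (h.right u m ?_)⟩
            · have : S.erase m \ u.toFinset = v.toFinset := by
                ext c
                rw [Finset.mem_sdiff, Finset.mem_erase, List.mem_toFinset, List.mem_toFinset,
                  ← hmem, List.mem_append, List.mem_cons]
                constructor
                · rintro ⟨⟨h1, h2 | h2 | h2⟩, h3⟩
                  · exact absurd h2 h3
                  · exact absurd h2 h1
                  · exact h2
                · intro h
                  refine ⟨⟨fun h' => hv.1 (h' ▸ h), Or.inr (Or.inr h)⟩, fun h' => ?_⟩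
                  exact hnd'.2.2 c h' c (List.mem_cons_of_mem _ h) rfl
              rw [this, List.toFinset_val, List.dedup_eq_self.2 hv.2]
            · intro c hc
              have h1 : c ∈ S := (hmem c).1 (List.mem_append_right _ (List.mem_cons_of_mem _ hc))
              exact lt_of_le_of_ne (S.le_max' c h1) fun h => hv.1 (h ▸ hc)
      refine (Finset.card_le_card hsub).trans (Finset.card_biUnion_le.trans ?_)
      rw [cf_succ_succ]
      have hsum := Finset.sum_powerset_apply_card (fun j => cf (k + 1) j * cf k (N - j))
        (x := S.erase m)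
      rw [hcard] at hsum
      simp only [smul_eq_mul] at hsum
      rw [← hsum]
      refine Finset.sum_le_sum fun T hT => ?_
      have hT' := Finset.mem_powerset.1 hT
      refine Finset.card_image_le.trans ?_
      rw [Finset.card_product]
      refine Nat.mul_le_mul (ihN _ ?_ T rfl) (ihk _ _ ?_)
      · have := Finset.card_le_card hT'
        omega
      · rw [Finset.card_sdiff_of_subset hT', hcard]

end Words

/-- `cf k N * r ^ N / N !` is bounded -/
theorem cf_bound (k : ℕ) : ∀ r : ℝ, 0 < r → ∃ C : ℝ, 0 ≤ C ∧
    ∀ N, (cf k N : ℝ) * r ^ N / N.factorial ≤ C := by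
  induction k with
  | zero =>
    intro r _
    exact ⟨0, le_rfl, fun N => by simp [cf_zero]⟩
  | succ k ih =>
    intro r hr
    obtain ⟨C, hC0, hC⟩ := ih (2 * r) (by positivity)
    obtain ⟨N0, hN0⟩ := exists_nat_ge (2 * r * C)
    set b : ℕ → ℝ := fun N => (cf (k + 1) N : ℝ) * r ^ N / N.factorial with hb
    have hb0 : ∀ N, 0 ≤ b N := fun N => by positivity
    refine ⟨∑ j ∈ range (N0 + 1), b j, Finset.sum_nonneg fun j _ => hb0 j, fun N => ?_⟩
    set B := ∑ j ∈ range (N0 + 1), b j with hB
    have hB0 : 0 ≤ B := Finset.sum_nonneg fun j _ => hb0 j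
    change b N ≤ B
    induction N using Nat.strong_induction_on with
    | _ N ihN =>
    by_cases hN : N ≤ N0
    · exact Finset.single_le_sum (f := b) (fun j _ => hb0 j) (Finset.mem_range.2 (by omega))
    · obtain ⟨N, rfl⟩ : ∃ M, N = M + 1 := ⟨N - 1, by omega⟩
      have hterm : ∀ j ∈ range (N + 1),
          ((N.choose j * (cf (k + 1) j * cf k (N - j)) : ℕ) : ℝ) * r ^ (N + 1) /
            (N + 1).factorial ≤ r / (N + 1) * (B * C) * (1 / 2) ^ (N - j) := by
        intro j hj
        have hj' : j ≤ N := Nat.lt_succ_iff.1 (Finset.mem_range.1 hj)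
        have h1 : b j ≤ B := ihN j (by omega)
        have h2 := hC (N - j)
        have h3 : ((N.choose j : ℕ) : ℝ) * j.factorial * (N - j).factorial = N.factorial := by
          exact_mod_cast Nat.choose_mul_factorial_mul_factorial hj'
        have h4 : ((N.choose j * (cf (k + 1) j * cf k (N - j)) : ℕ) : ℝ) * r ^ (N + 1) /
            (N + 1).factorial = r / (N + 1) * (b j * ((cf k (N - j) : ℝ) * (2 * r) ^ (N - j) /
              (N - j).factorial)) * (1 / 2) ^ (N - j) := by
          have e1 : r ^ (N + 1) = r * r ^ j * r ^ (N - j) := by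
            rw [mul_assoc, ← pow_add, ← pow_succ']
            congr 1
            omega
          have hc : ((N.choose j : ℕ) : ℝ) ≠ 0 := by
            exact_mod_cast (Nat.choose_pos hj').ne'
          rw [Nat.factorial_succ, e1, hb]
          push_cast
          rw [← h3, mul_pow, one_div, inv_pow]
          field_simp
        rw [h4]
        have h5 : b j * ((cf k (N - j) : ℝ) * (2 * r) ^ (N - j) / (N - j).factorial) ≤ B * C :=
          mul_le_mul h1 h2 (by positivity) hB0
        gcongr
      have hgeo : ∑ j ∈ range (N + 1), ((1 : ℝ) / 2) ^ (N - j) ≤ 2 := by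
        have := Finset.sum_range_reflect (fun j => ((1 : ℝ) / 2) ^ j) (N + 1)
        simp only [Nat.add_sub_cancel] at this
        rw [this]
        exact sum_geometric_two_le _
      have hN1 : 2 * r * C ≤ (N : ℝ) + 1 := by
        have : (N0 : ℝ) ≤ N + 1 := by exact_mod_cast (by omega : N0 ≤ N + 1)
        linarith
      calc b (N + 1) = ∑ j ∈ range (N + 1),
            ((N.choose j * (cf (k + 1) j * cf k (N - j)) : ℕ) : ℝ) * r ^ (N + 1) /
              (N + 1).factorial := by
            rw [hb]
            simp only []
            rw [cf_succ_succ, Nat.cast_sum, Finset.sum_mul, Finset.sum_div]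
        _ ≤ ∑ j ∈ range (N + 1), r / (N + 1) * (B * C) * (1 / 2) ^ (N - j) :=
            Finset.sum_le_sum hterm
        _ = r / (N + 1) * (B * C) * ∑ j ∈ range (N + 1), ((1 : ℝ) / 2) ^ (N - j) := by
            rw [Finset.mul_sum]
        _ ≤ r / (N + 1) * (B * C) * 2 := by gcongr
        _ = (2 * r * C) / (N + 1) * B := by ring
        _ ≤ 1 * B := by
            gcongr
            rw [div_le_one (by positivity)]
            exact hN1
        _ = B := one_mul B

theorem exists_cf_lt (k q : ℕ) : ∃ N, q ^ N * cf k N < N.factorial := by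
  obtain ⟨C, hC0, hC⟩ := cf_bound k (2 * (q + 1)) (by positivity)
  obtain ⟨N, hN⟩ := pow_unbounded_of_one_lt C (one_lt_two (α := ℝ))
  refine ⟨N, ?_⟩
  have h1 := hC N
  have hf : (0 : ℝ) < N.factorial := by exact_mod_cast N.factorial_pos
  rw [div_le_iff₀ hf, mul_pow] at h1
  have h2 : (q : ℝ) ^ N ≤ (q + 1) ^ N := by gcongr; linarith
  have h3 : (2 : ℝ) ^ N * ((q : ℝ) ^ N * cf k N) < 2 ^ N * N.factorial := by
    calc (2 : ℝ) ^ N * ((q : ℝ) ^ N * cf k N) ≤ 2 ^ N * (((q : ℝ) + 1) ^ N * cf k N) := by gcongr
      _ = cf k N * (2 ^ N * ((q : ℝ) + 1) ^ N) := by ring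
      _ ≤ C * N.factorial := h1
      _ < 2 ^ N * N.factorial := by gcongr
  have h4 := lt_of_mul_lt_mul_left h3 (by positivity)
  exact_mod_cast h4

section Pigeon

variable {β D : Type*} [AddCommGroup D] [DecidableEq D]

/-- the number of prefixes of a list with sum `d` -/
def pc (f : β → D) : D → List β → ℕ
  | d, [] => if d = 0 then 1 else 0
  | d, x :: l => (if d = 0 then 1 else 0) + pc f (d - f x) l

theorem pc_realised : True := by have := @pc.eq_def.{0, 0}; trivial

theorem pc_nil (f : β → D) (d : D) : pc f d [] = if d = 0 then 1 else 0 := rfl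

theorem pc_cons (f : β → D) (d : D) (x : β) (l : List β) :
    pc f d (x :: l) = (if d = 0 then 1 else 0) + pc f (d - f x) l := rfl

theorem sum_pc [Fintype D] (f : β → D) (l : List β) : ∑ d, pc f d l = l.length + 1 := by
  induction l with
  | nil => simp [pc_nil]
  | cons x l ih =>
    simp only [pc_cons, Finset.sum_add_distrib, List.length_cons]
    have h1 : ∑ d, pc f (d - f x) l = ∑ d, pc f d l :=
      Equiv.sum_comp (Equiv.subRight (f x)) (fun d => pc f d l)
    rw [h1, ih]
    simp
    omega

theorem exists_groups_of_pc (f : β → D) (l : List β) : ∀ (d : D) (n : ℕ), n < pc f d l →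
    ∃ (p : List β) (gs : List (List β)) (s : List β), l = p ++ gs.flatten ++ s ∧
      (p.map f).sum = d ∧ gs.length = n ∧ ∀ g ∈ gs, g ≠ [] ∧ (g.map f).sum = 0 := by
  induction l with
  | nil =>
    intro d n h
    rw [pc_nil] at h
    split_ifs at h with hd
    · exact ⟨[], [], [], rfl, hd.symm, by simp; omega, by simp⟩
    · omega
  | cons x l ih =>
    intro d n h
    rw [pc_cons] at h
    split_ifs at h with hd
    · rcases n with _ | n
      · exact ⟨[], [], x :: l, rfl, hd.symm, rfl, by simp⟩
      · obtain ⟨p, gs, s, h1, h2, h3, h4⟩ := ih (d - f x) n (by omega)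
        refine ⟨[], (x :: p) :: gs, s, by simp [h1], hd.symm, by simp [h3], ?_⟩
        intro g hg
        rcases List.mem_cons.1 hg with rfl | hg
        · refine ⟨List.cons_ne_nil _ _, ?_⟩
          rw [List.map_cons, List.sum_cons, h2, hd]
          abel
        · exact h4 g hg
    · obtain ⟨p, gs, s, h1, h2, h3, h4⟩ := ih (d - f x) n (by omega)
      refine ⟨x :: p, gs, s, by simp [h1], ?_, h3, h4⟩
      rw [List.map_cons, List.sum_cons, h2]
      abel

theorem exists_groups [Fintype D] (f : β → D) (l : List β) (n : ℕ)
    (h : Fintype.card D * n ≤ l.length) :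
    ∃ (p : List β) (gs : List (List β)) (s : List β), l = p ++ gs.flatten ++ s ∧
      gs.length = n ∧ ∀ g ∈ gs, g ≠ [] ∧ (g.map f).sum = 0 := by
  have : ∃ d, n < pc f d l := by
    by_contra hcon
    push Not at hcon
    have h1 : ∑ d, pc f d l ≤ ∑ _d : D, n := Finset.sum_le_sum fun d _ => hcon d
    rw [sum_pc, Finset.sum_const, Finset.card_univ, smul_eq_mul] at h1
    omega
  obtain ⟨d, hd⟩ := this
  obtain ⟨p, gs, s, h1, -, h3, h4⟩ := exists_groups_of_pc f l d n hd
  exact ⟨p, gs, s, h1, h3, h4⟩

end Pigeon

/-- a `(|D| n)`-decomposable word has `n` consecutive blocks of degree zero -/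
theorem Dec.exists_zero {α D : Type*} [LinearOrder α] [AddCommGroup D] [Fintype D] (δ : α → D)
    {n : ℕ} {w : List α} (h : Dec (Fintype.card D * n) w) :
    ∃ (p : List α) (bs : List (List α)) (s : List α), Good bs ∧ bs.length = n ∧
      (∀ b ∈ bs, (b.map δ).sum = 0) ∧ w = p ++ bs.flatten ++ s := by
  classical
  obtain ⟨p, bs, s, h1, h2, rfl⟩ := h
  obtain ⟨p', gs, s', rfl, h4, h5⟩ := exists_groups (fun b : List α => (b.map δ).sum) bs n h2.ge
  refine ⟨p ++ p'.flatten, gs.map List.flatten, s'.flatten ++ s, ?_, by simp [h4], ?_, ?_⟩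
  · rw [List.append_assoc] at h1
    exact Good.merge gs s' (fun g hg => (h5 g hg).1) h1.right
  · intro b hb
    obtain ⟨g, hg, rfl⟩ := List.mem_map.1 hb
    rw [← (h5 g hg).2, List.map_flatten, List.sum_flatten, List.map_map]
    rfl
  · rw [← List.flatten_flatten]
    simp

end Cfsg.Agent.Zel.BZ
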