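import Mathlib
import Cfsg.Agent.Zel.PI.Defs
import Cfsg.Agent.Zel.BZ.Count

/-!
# From a symmetric identity in degree zero to an ordinary multilinear identity

Decomposable words are rewritten by lexicographically smaller words; the indecomposable words are
few, so that some multilinear polynomial vanishes for all degree patterns.
-/

set_option autoImplicit false

universe u

namespace Cfsg.Agent.Zel.BZ

open Cfsg.Agent.Zel.PI Submodule

section Rewrite

variable (F : Type*) {A α : Type*} [Field F] [Ring A] [Algebra F A] [LinearOrder α] (y : α → A)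

/-- the span of the words with given content -/
def All (m : Multiset α) : Submodule F A :=
  span F {z | ∃ u : List α, (u : Multiset α) = m ∧ z = wd y u}

/-- the span of the words with given content and first letter less than `a` -/
def Hd (a : α) (m : Multiset α) : Submodule F A :=
  span F {z | ∃ (c : α) (u : List α), c < a ∧ ((c :: u : List α) : Multiset α) = m ∧
    z = wd y (c :: u)}

/-- the span of the lexicographically smaller rearrangements of a word -/
def Low (w : List α) : Submodule F A :=
  span F {z | ∃ (p : List α) (c a : α) (s t : List α), c < a ∧ w = p ++ a :: t ∧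
    ((p ++ c :: s : List α) : Multiset α) = w ∧ z = wd y (p ++ c :: s)}

variable {F y}

omit [LinearOrder α] in
theorem wd_mem_all (u : List α) : wd y u ∈ All F y (u : Multiset α) :=
  subset_span ⟨u, rfl, rfl⟩

omit [LinearOrder α] in
theorem mul_mem_all {m m' : Multiset α} {z z' : A} (h : z ∈ All F y m) (h' : z' ∈ All F y m') :
    z * z' ∈ All F y (m + m') := by
  have : All F y m * All F y m' ≤ All F y (m + m') := by
    unfold All
    rw [span_mul_span]
    apply span_mono
    rintro _ ⟨_, ⟨u, rfl, rfl⟩, _, ⟨v, rfl, rfl⟩, rfl⟩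
    exact ⟨u ++ v, rfl, (wd_append y u v).symm⟩
  exact this (mul_mem_mul h h')

theorem mul_mem_hd {a : α} {m m' : Multiset α} {z z' : A} (h : z ∈ Hd F y a m)
    (h' : z' ∈ All F y m') : z * z' ∈ Hd F y a (m + m') := by
  have : Hd F y a m * All F y m' ≤ Hd F y a (m + m') := by
    unfold All Hd
    rw [span_mul_span]
    apply span_mono
    rintro _ ⟨_, ⟨c, u, hc, rfl, rfl⟩, _, ⟨v, rfl, rfl⟩, rfl⟩
    exact ⟨c, u ++ v, hc, rfl, (wd_append y (c :: u) v).symm⟩
  exact this (mul_mem_mul h h')

theorem hd_le_all (a : α) (m : Multiset α) : Hd F y a m ≤ All F y m := by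
  apply span_mono
  rintro _ ⟨c, u, -, rfl, rfl⟩
  exact ⟨c :: u, rfl, rfl⟩

theorem all_le_hd {a : α} {m : Multiset α} (h0 : m ≠ 0) (h : ∀ c ∈ m, c < a) :
    All F y m ≤ Hd F y a m := by
  apply span_mono
  rintro _ ⟨u, rfl, rfl⟩
  rcases u with _ | ⟨c, u⟩
  · exact absurd rfl h0
  · exact ⟨c, u, h c (by simp), rfl, rfl⟩

theorem hd_le_low (a : α) (t : List α) : Hd F y a (a :: t : List α) ≤ Low F y (a :: t) := by
  apply span_mono
  rintro _ ⟨c, u, hc, h, rfl⟩
  exact ⟨[], c, a, u, t, hc, rfl, h, rfl⟩

theorem mul_mem_low_left (v : List α) {w : List α} {z : A} (h : z ∈ Low F y w) :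
    wd y v * z ∈ Low F y (v ++ w) := by
  have : Low F y w ≤ (Low F y (v ++ w)).comap (LinearMap.mulLeft F (wd y v)) := by
    apply span_le.2
    rintro _ ⟨p, c, a, s, t, hc, rfl, h, rfl⟩
    refine subset_span ⟨v ++ p, c, a, s, t, hc, by simp, ?_, by simp⟩
    rw [List.append_assoc, ← Multiset.coe_add, ← Multiset.coe_add v, h]
  exact this h

theorem mul_mem_low_right (v : List α) {w : List α} {z : A} (h : z ∈ Low F y w) :
    z * wd y v ∈ Low F y (w ++ v) := by
  have : Low F y w ≤ (Low F y (w ++ v)).comap (LinearMap.mulRight F (wd y v)) := by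
    apply span_le.2
    rintro _ ⟨p, c, a, s, t, hc, rfl, h, rfl⟩
    refine subset_span ⟨p, c, a, s ++ v, t ++ v, hc, by simp, ?_, by simp [mul_assoc]⟩
    rw [← List.cons_append, ← List.append_assoc, ← Multiset.coe_add, ← Multiset.coe_add _ v, h]
  exact this h

omit [LinearOrder α] in
theorem symProd_mem_all {ι : Type*} [DecidableEq ι] (B : ι → List α) (z : ι → A) :
    ∀ (k : ℕ) (S : Finset ι), S.card = k → (∀ i ∈ S, z i ∈ All F y (B i : Multiset α)) →
      symProd z k S ∈ All F y (∑ i ∈ S, (B i : Multiset α)) := by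
  intro k
  induction k with
  | zero =>
    intro S hS _
    rw [Finset.card_eq_zero.1 hS, symProd_zero, Finset.sum_empty]
    exact wd_mem_all []
  | succ k ih =>
    intro S hS hz
    rw [symProd_succ]
    refine sum_mem fun j hj => ?_
    rw [← Finset.add_sum_erase S _ hj]
    refine mul_mem_all (hz j hj) (ih _ ?_ fun i hi => hz i (Finset.mem_of_mem_erase hi))
    rw [Finset.card_erase_of_mem hj, hS]
    rfl

omit [LinearOrder α] in
theorem coe_flatten_map {ι : Type*} [DecidableEq ι] (B : ι → List α) (l : List ι) (hl : l.Nodup) :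
    (((l.map B).flatten : List α) : Multiset α) = ∑ i ∈ l.toFinset, (B i : Multiset α) := by
  induction l with
  | nil => simp
  | cons i l ih =>
    have h := List.nodup_cons.1 hl
    rw [List.toFinset_cons, Finset.sum_insert (by simpa using h.1), ← ih h.2, List.map_cons,
      List.flatten_cons, Multiset.coe_add]

theorem Good.ne_nil {bs : List (List α)} (h : Good bs) : ∀ b ∈ bs, b ≠ [] := by
  induction h with
  | nil => simp
  | cons a t bs _ _ _ ih =>
    intro b hb
    rcases List.mem_cons.1 hb with rfl | hb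
    · exact List.cons_ne_nil _ _
    · exact ih b hb

theorem Good.head {bs : List (List α)} (h : Good bs) :
    ∀ b ∈ bs, ∃ a t, b = a :: t ∧ ∀ c ∈ t, c < a := by
  induction h with
  | nil => simp
  | cons a t bs h1 _ _ ih =>
    intro b hb
    rcases List.mem_cons.1 hb with rfl | hb
    · exact ⟨a, t, rfl, h1⟩
    · exact ih b hb

theorem symProd_sub_mem_low {ι : Type*} [DecidableEq ι] (B : ι → List α) (z : ι → A)
    (hz : ∀ i a t, B i = a :: t → z i - wd y (B i) ∈ Hd F y a (B i : Multiset α))
    (hz' : ∀ i, z i ∈ All F y (B i : Multiset α)) :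
    ∀ l : List ι, l.Nodup → Good (l.map B) →
      symProd z l.length l.toFinset - wd y (l.map B).flatten ∈ Low F y (l.map B).flatten := by
  intro l
  induction l with
  | nil =>
    intro _ _
    simp [symProd_zero]
  | cons i l ih =>
    intro hl hg
    have h := List.nodup_cons.1 hl
    have hi : i ∉ l.toFinset := by simpa using h.1
    rw [List.map_cons] at hg
    generalize hB : B i = b at hg
    cases hg with
    | cons a t bs h1 h2 h3 =>
      have hlow := ih h.2 h3
      have hall : symProd z l.length l.toFinset ∈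
          All F y (((l.map B).flatten : List α) : Multiset α) := by
        rw [coe_flatten_map B l h.2]
        exact symProd_mem_all B z _ _ (List.toFinset_card_of_nodup h.2) fun j _ => hz' j
      have hcoe : ((a :: (t ++ (l.map B).flatten) : List α) : Multiset α) =
          (B i : Multiset α) + ((l.map B).flatten : List α) := by
        rw [hB, Multiset.coe_add, List.cons_append]
      rw [List.length_cons, List.toFinset_cons, symProd_succ, Finset.sum_insert hi,
        Finset.erase_insert hi, List.map_cons, List.flatten_cons, wd_append]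
      have e : z i * symProd z l.length l.toFinset +
          ∑ j ∈ l.toFinset, z j * symProd z l.length ((insert i l.toFinset).erase j) -
          wd y (B i) * wd y (l.map B).flatten =
          wd y (B i) * (symProd z l.length l.toFinset - wd y (l.map B).flatten) +
          ((z i - wd y (B i)) * symProd z l.length l.toFinset +
          ∑ j ∈ l.toFinset, z j * symProd z l.length ((insert i l.toFinset).erase j)) := by
        noncomm_ring
      rw [e]
      refine add_mem (mul_mem_low_left _ hlow) ?_
      rw [hB, List.cons_append]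
      apply hd_le_low
      rw [hcoe, ← hB]
      refine add_mem (mul_mem_hd (hz i a t hB) hall) (sum_mem fun j hj => ?_)
      have hj' : j ∈ l := List.mem_toFinset.1 hj
      have hjS : j ∈ insert i l.toFinset := Finset.mem_insert_of_mem hj
      have hsum : (B i : Multiset α) + ((l.map B).flatten : List α) =
          (B j : Multiset α) + ∑ k ∈ (insert i l.toFinset).erase j, (B k : Multiset α) := by
        rw [Finset.add_sum_erase _ (fun k => (B k : Multiset α)) hjS, Finset.sum_insert hi,
          coe_flatten_map B l h.2]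
      rw [hsum]
      refine mul_mem_hd (all_le_hd ?_ ?_ (hz' j)) (symProd_mem_all B z _ _ ?_ fun k _ => hz' k)
      · rw [Ne, Multiset.coe_eq_zero]
        exact h3.ne_nil _ (List.mem_map_of_mem hj')
      · intro c hc
        exact h2 c (List.mem_flatten.2 ⟨B j, List.mem_map_of_mem hj', hc⟩)
      · rw [Finset.card_erase_of_mem hjS, Finset.card_insert_of_notMem hi,
          List.toFinset_card_of_nodup h.2]
        rfl

variable {D : Type*} [AddCommGroup D] {M : D → Set A} {δ : α → D}

/-- the left normed commutator of a block -/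
theorem exists_comm (hM : ∀ i j, ∀ a ∈ M i, ∀ b ∈ M j, a * b - b * a ∈ M (i + j)) (a : α)
    (ha : y a ∈ M (δ a)) (t : List α) : (∀ c ∈ t, c < a) → (∀ c ∈ t, y c ∈ M (δ c)) →
    ∃ z ∈ M (((a :: t).map δ).sum), z - wd y (a :: t) ∈ Hd F y a (a :: t : List α) := by
  induction t using List.reverseRecOn with
  | nil =>
    intro _ _
    exact ⟨y a, by simpa using ha, by simp⟩
  | append_singleton t x ih =>
    intro h1 h2
    obtain ⟨z, hz1, hz2⟩ := ih (fun c hc => h1 c (List.mem_append_left _ hc))
      (fun c hc => h2 c (List.mem_append_left _ hc))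
    have hx : x ∈ t ++ [x] := by simp
    refine ⟨z * y x - y x * z, ?_, ?_⟩
    · have := hM _ _ z hz1 (y x) (h2 x hx)
      rw [← List.cons_append, List.map_append, List.sum_append]
      simpa using this
    · have hzall : z ∈ All F y (a :: t : List α) := by
        have := add_mem (hd_le_all _ _ hz2) (wd_mem_all (F := F) (y := y) (a :: t))
        rwa [sub_add_cancel] at this
      have hxall : y x ∈ All F y ([x] : List α) := by
        have := wd_mem_all (F := F) (y := y) [x]
        simpa using this
      have e : z * y x - y x * z - wd y (a :: (t ++ [x])) =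
          (z - wd y (a :: t)) * y x - y x * z := by
        rw [← List.cons_append, wd_append, wd_cons y x, wd_nil]
        noncomm_ring
      rw [e, ← List.cons_append, ← Multiset.coe_add]
      refine sub_mem (mul_mem_hd hz2 hxall) ?_
      rw [add_comm]
      refine mul_mem_hd (all_le_hd (by simp) ?_ hxall) hzall
      intro c hc
      have : c = x := by simpa using hc
      rw [this]
      exact h1 x hx

theorem wd_mem_low [Fintype D] (hM : ∀ i j, ∀ a ∈ M i, ∀ b ∈ M j, a * b - b * a ∈ M (i + j))
    {n : ℕ} (hs : ∀ z : Fin n → A, (∀ i, z i ∈ M 0) → symProd z n Finset.univ = 0)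
    {w : List α} (hw : ∀ c ∈ w, y c ∈ M (δ c)) (h : Dec (Fintype.card D * n) w) :
    wd y w ∈ Low F y w := by
  obtain ⟨p, bs, s, h1, rfl, h3, rfl⟩ := h.exists_zero δ
  have hex : ∀ i : Fin bs.length, ∃ z ∈ M 0, z ∈ All F y (bs[i] : Multiset α) ∧
      ∀ a t, bs[i] = a :: t → z - wd y bs[i] ∈ Hd F y a (bs[i] : Multiset α) := by
    intro i
    have hb : bs[i] ∈ bs := List.getElem_mem _
    obtain ⟨a, t, hat, ht⟩ := h1.head _ hb
    have hmem : ∀ c ∈ a :: t, y c ∈ M (δ c) := fun c hc => hw c
      (List.mem_append_left _ (List.mem_append_right _ (List.mem_flatten.2 ⟨_, hb, hat ▸ hc⟩)))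
    obtain ⟨z, hz1, hz2⟩ := exists_comm (F := F) hM a (hmem a (List.mem_cons_self ..)) t ht
      (fun c hc => hmem c (List.mem_cons_of_mem _ hc))
    rw [← hat, h3 _ hb] at hz1
    refine ⟨z, hz1, ?_, ?_⟩
    · have := add_mem (hd_le_all _ _ hz2) (wd_mem_all (F := F) (y := y) (a :: t))
      rwa [sub_add_cancel, ← hat] at this
    · intro a' t' h'
      rw [hat] at h'
      obtain ⟨rfl, rfl⟩ := List.cons.inj h'
      rw [hat]
      exact hz2
  choose z hz0 hz1 hz2 using hex
  have hmap : (List.finRange bs.length).map (fun i => bs[i]) = bs := by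
    apply List.ext_getElem <;> simp
  have key := symProd_sub_mem_low (F := F) (y := y) (fun i : Fin bs.length => bs[i]) z hz2 hz1
    (List.finRange bs.length) (List.nodup_finRange _) (by rw [hmap]; exact h1)
  rw [hmap, List.length_finRange, List.toFinset_finRange, hs z hz0, zero_sub, neg_mem_iff] at key
  rw [wd_append, wd_append]
  exact mul_mem_low_right _ (mul_mem_low_left _ key)

theorem wd_mem_span_ind [Fintype D]
    (hM : ∀ i j, ∀ a ∈ M i, ∀ b ∈ M j, a * b - b * a ∈ M (i + j))
    {n : ℕ} (hs : ∀ z : Fin n → A, (∀ i, z i ∈ M 0) → symProd z n Finset.univ = 0)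
    {S : Finset α} (hS : ∀ c ∈ S, y c ∈ M (δ c)) (w : List α) (hw : (w : Multiset α) = S.val) :
    wd y w ∈ span F (wd y '' (ind (Fintype.card D * n) S : Set (List α))) := by
  classical
  have hfin : {u : List α | (u : Multiset α) = S.val}.Finite := by
    refine (S.val.lists.toFinset.finite_toSet).subset fun u hu => ?_
    rw [Finset.mem_coe, Multiset.mem_toFinset, Multiset.mem_lists_iff]
    exact hu.symm
  refine Set.WellFoundedOn.induction (r := (· < ·)) (P := fun w =>
    wd y w ∈ span F (wd y '' (ind (Fintype.card D * n) S : Set (List α)))) hfin.isWF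
    (show w ∈ {u : List α | (u : Multiset α) = S.val} from hw) ?_
  intro u hu ih
  by_cases hd : Dec (Fintype.card D * n) u
  · have hu' : ∀ c ∈ u, y c ∈ M (δ c) := fun c hc => hS c (by
      rw [← Finset.mem_val, ← (show (u : Multiset α) = S.val from hu)]
      exact hc)
    refine (span_le.2 ?_ : Low F y u ≤ _) (wd_mem_low hM hs hu' hd)
    rintro _ ⟨p, c, a, s, t, hc, rfl, h, rfl⟩
    exact ih _ (h.trans hu) (List.Lex.append_left _ (List.Lex.rel hc) p)
  · exact subset_span ⟨u, mem_ind.2 ⟨hu, hd⟩, rfl⟩

end Rewrite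

theorem symProd_apply {ι κ A : Type*} [Ring A] [DecidableEq ι] (z : ι → κ → A) (τ : κ) :
    ∀ (k : ℕ) (S : Finset ι), symProd z k S τ = symProd (fun i => z i τ) k S := by
  intro k
  induction k with
  | zero => intro S; rfl
  | succ k ih =>
    intro S
    rw [symProd_succ, symProd_succ, Finset.sum_apply]
    exact Finset.sum_congr rfl fun j _ => by rw [Pi.mul_apply, ih]

theorem wd_apply {α κ A : Type*} [Monoid A] (z : α → κ → A) (τ : κ) (w : List α) :
    wd z w τ = wd (fun i => z i τ) w := by
  induction w with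
  | nil => rfl
  | cons a w ih => rw [wd_cons, wd_cons, Pi.mul_apply, ih]

/-- the theorem of Bahturin and Zaicev for the symmetric identity -/
theorem exists_identity (F : Type*) {A D : Type*} [Field F] [Ring A] [Algebra F A]
    [AddCommGroup D] [Fintype D] (M : D → Set A)
    (hM : ∀ i j, ∀ a ∈ M i, ∀ b ∈ M j, a * b - b * a ∈ M (i + j))
    {n : ℕ} (hs : ∀ z : Fin n → A, (∀ i, z i ∈ M 0) → symProd z n Finset.univ = 0) :
    ∃ (S : Finset ℕ) (f : List ℕ → F), (∃ w ∈ perms S, f w ≠ 0) ∧
      ∀ z : ℕ → A, (∀ i, ∃ e, z i ∈ M e) → val S f z = 0 := by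
  classical
  obtain ⟨N, hN⟩ := exists_cf_lt (Fintype.card D * n) (Fintype.card D)
  set k := Fintype.card D * n with hk
  set S := Finset.range N with hS
  let Z : (Fin N → D) → Type _ := fun δ => {z : ℕ → A // ∀ i : Fin N, z i ∈ M (δ i)}
  let Y : ∀ δ : Fin N → D, ℕ → Z δ → A := fun δ i z => z.1 i
  let V : ∀ δ : Fin N → D, Submodule F (Z δ → A) := fun δ =>
    span F (wd (Y δ) '' (ind k S : Set (List ℕ)))
  have hV : ∀ δ, ∀ w ∈ perms S, wd (Y δ) w ∈ V δ := by
    intro δ w hw
    obtain ⟨h1, h2⟩ := mem_perms.1 hw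
    refine wd_mem_span_ind (M := fun e => {g : Z δ → A | ∀ τ, g τ ∈ M e})
      (δ := fun i => if h : i < N then δ ⟨i, h⟩ else 0) ?_ ?_ ?_ w ?_
    · intro i j a ha b hb τ
      exact hM i j _ (ha τ) _ (hb τ)
    · intro z hz
      funext τ
      rw [symProd_apply]
      exact hs _ fun i => hz i τ
    · intro c hc τ
      have hc' : c < N := Finset.mem_range.1 hc
      simp only [dif_pos hc']
      exact τ.2 ⟨c, hc'⟩
    · rw [← h2, List.toFinset_val, List.dedup_eq_self.2 h1]
  have hfd : ∀ δ, FiniteDimensional F (V δ) := fun δ =>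
    FiniteDimensional.span_of_finite F ((ind k S).finite_toSet.image _)
  have hrk : ∀ δ, Module.finrank F (V δ) ≤ cf k N := by
    intro δ
    have h1 := finrank_span_finset_le_card (R := F) ((ind k S).image (wd (Y δ)))
    rw [Finset.coe_image] at h1
    exact h1.trans (Finset.card_image_le.trans (card_ind_le k N S (Finset.card_range N)))
  let Φ : (perms S → F) →ₗ[F] ∀ δ, V δ := LinearMap.pi fun δ =>
    Fintype.linearCombination F fun w : perms S => (⟨wd (Y δ) w, hV δ w w.2⟩ : V δ)
  have hlt : Module.finrank F (∀ δ, V δ) < Module.finrank F (perms S → F) := by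
    rw [Module.finrank_pi_fintype, Module.finrank_fintype_fun_eq_card, Fintype.card_coe,
      card_perms, Finset.card_range]
    refine lt_of_le_of_lt ?_ hN
    refine (Finset.sum_le_sum fun δ _ => hrk δ).trans ?_
    rw [Finset.sum_const, Finset.card_univ, Fintype.card_fun, Fintype.card_fin, smul_eq_mul]
  obtain ⟨c, hc, hc0⟩ := Submodule.exists_mem_ne_zero_of_ne_bot
    (LinearMap.ker_ne_bot_of_finrank_lt (f := Φ) hlt)
  refine ⟨S, fun w => if h : w ∈ perms S then c ⟨w, h⟩ else 0, ?_, ?_⟩
  · obtain ⟨w, hw⟩ := Function.ne_iff.1 hc0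
    exact ⟨w, w.2, by simpa using hw⟩
  · intro z hz
    choose e he using hz
    let δ : Fin N → D := fun i => e i
    have h1 := congrFun (congrArg Subtype.val (congrFun (LinearMap.mem_ker.1 hc) δ))
      (⟨z, fun i => he i⟩ : Z δ)
    simp only [Φ, LinearMap.pi_apply, Fintype.linearCombination_apply, AddSubmonoidClass.coe_finsetSum,
      Finset.sum_apply, SetLike.val_smul, Pi.smul_apply, wd_apply] at h1
    change ∑ w ∈ perms S, (if h : w ∈ perms S then c ⟨w, h⟩ else 0) • wd z w = 0
    rw [← Finset.sum_coe_sort]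
    refine Eq.trans (Finset.sum_congr rfl fun w _ => ?_) h1
    rw [dif_pos w.2]

theorem bzBox : BZBox.{u} := by
  intro F A _ _ _ q n d x deg hq hs
  have : NeZero q := ⟨hq.ne'⟩
  obtain ⟨S, f, h1, h2⟩ := exists_identity F
    (fun e : ZMod q => {a : A | ∃ t : FreeMagma (Fin d), dg deg t = e ∧ a = cm x t}) (n := n)
    (by
      rintro i j _ ⟨s, rfl, rfl⟩ _ ⟨t, rfl, rfl⟩
      exact ⟨s * t, dg_mul _ _ _, (cm_mul _ _ _).symm⟩)
    (by
      intro z hz
      choose t ht1 ht2 using hz
      rw [show z = fun i => cm x (t i) from funext ht2]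
      exact hs t ht1)
  exact ⟨S, f, h1, fun t => h2 _ fun i => ⟨_, t i, rfl, rfl⟩⟩

end Cfsg.Agent.Zel.BZ
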